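import Mathlib
import Cfsg.Prelude.Def_LieTypeDatum
import Cfsg.Agent.Lib.Classical.OrthMatrix

/-! A similarity preserves the two classes of Lagrangian subspaces iff its determinant is the power of its multiplier. -/

set_option autoImplicit false

namespace Cfsg.Lib.Classical.OrthAut

open Module Reflections OrthMatrix Spinor
open scoped Matrix MatrixGroups

universe u

variable {ι : Type} [Fintype ι] [DecidableEq ι] {F : Type u} [Field F] [Fintype F]
variable {f : (ι → F) → F} {Q : QuadraticForm F (ι → F)}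
  (hf : ∀ v, Q v = f v) (hB : (QuadraticMap.polarBilin Q).Nondegenerate) (h2 : (2 : F) ≠ 0)
  {m : ℕ} (hι : Fintype.card ι = 2 * m)

/-- Totally singular of half the dimension. -/
def IsLag (Q : QuadraticForm F (ι → F)) (m : ℕ) (U : Submodule F (ι → F)) : Prop :=
  (∀ x ∈ U, Q x = 0) ∧ finrank F U = m

omit [DecidableEq ι] [Fintype F] [Fintype ι] in
lemma polar_zero {U : Submodule F (ι → F)} (hU : ∀ x ∈ U, Q x = 0) {x y : ι → F} (hx : x ∈ U) (hy : y ∈ U) :
    QuadraticMap.polarBilin Q x y = 0 := by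
  have h := Witt.quad_add Q x y
  rw [hU _ (add_mem hx hy), hU _ hx, hU _ hy, zero_add, zero_add] at h
  exact h.symm

include hB hι

omit [DecidableEq ι] [Fintype F] in
lemma mem_lag {U : Submodule F (ι → F)} (hU : IsLag Q m U) {x : ι → F}
    (hx : ∀ u ∈ U, QuadraticMap.polarBilin Q u x = 0) : x ∈ U := by
  let B : LinearMap.BilinForm F (ι → F) := QuadraticMap.polarBilin Q
  have hBs : B.IsRefl := fun a b h => by rw [← h]; exact Witt.polar_symm' Q b a
  have hle : U ≤ B.orthogonal U := fun y hy u hu => polar_zero hU.1 hu hy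
  have hfr := LinearMap.BilinForm.finrank_orthogonal (B := B) hB U
  rw [hU.2, Module.finrank_fintype_fun_eq_card, hι] at hfr
  rw [Submodule.eq_of_le_of_finrank_le hle (by rw [hU.2]; omega)]
  exact hx

omit [Fintype F] [DecidableEq ι] in
lemma det_stab {U : Submodule F (ι → F)} (hU : IsLag Q m U) (E : (ι → F) →ₗ[F] (ι → F)) {μ : F}
    (hE : ∀ x y, QuadraticMap.polarBilin Q (E x) (E y) = μ * QuadraticMap.polarBilin Q x y) (hEU : U ≤ U.comap E) :
    E.det = μ ^ m := by
  let P : (ι → F) →ₗ[F] Module.Dual F U :=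
    U.subtype.dualMap.comp (QuadraticMap.polarBilin Q : (ι → F) →ₗ[F] (ι → F) →ₗ[F] F).flip
  have hP : ∀ x (u : U), P x u = QuadraticMap.polarBilin Q u.1 x := fun x u => rfl
  have hker : LinearMap.ker P = U := by
    refine le_antisymm (fun x hx => mem_lag hB hι hU fun u hu => ?_) fun x hx => LinearMap.ext fun u => polar_zero hU.1 u.2 hx
    exact LinearMap.congr_fun (LinearMap.mem_ker.1 hx) ⟨u, hu⟩
  have hsurj : Function.Surjective P := by
    rw [← LinearMap.range_eq_top]
    refine Submodule.eq_top_of_finrank_eq ?_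
    have := P.finrank_range_add_finrank_ker
    rw [hker, hU.2, Module.finrank_fintype_fun_eq_card, hι] at this
    rw [Subspace.dual_finrank_eq, hU.2]
    omega
  let e : ((ι → F) ⧸ U) ≃ₗ[F] Module.Dual F U := (Submodule.quotEquivOfEq _ _ hker.symm).trans (P.quotKerEquivOfSurjective hsurj)
  let A := E.restrict hEU
  let D := U.mapQ U E hEU
  have h : A.dualMap.comp (e.toLinearMap.comp (D.comp e.symm.toLinearMap)) = μ • LinearMap.id := by
    refine LinearMap.ext fun φ => ?_
    obtain ⟨z, rfl⟩ := e.surjective φ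
    obtain ⟨x, rfl⟩ := Submodule.mkQ_surjective U z
    refine LinearMap.ext fun u => ?_
    simp only [LinearMap.comp_apply, LinearEquiv.coe_coe, LinearEquiv.symm_apply_apply]
    show P (E x) ⟨E u.1, _⟩ = μ * P x u
    exact hE u.1 x
  have h' := congrArg LinearMap.det h
  rw [LinearMap.det_comp, LinearMap.det_dualMap, LinearMap.det_smul, LinearMap.det_id, mul_one, Subspace.dual_finrank_eq,
    hU.2, LinearMap.det_conj] at h'
  rw [LinearMap.det_eq_det_mul_det U E hEU]
  exact h'

include hf h2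

omit hι in
lemma det_refl {v : ι → F} (hv : Q v ≠ 0) : LinearMap.det ((refl Q v).1 : (ι → F) →ₗ[F] (ι → F)) = -1 := by
  have e : ((refl Q v).1 : (ι → F) →ₗ[F] (ι → F)) =
      Matrix.toLin' ((((eI hf).symm (refl Q v) : Cfsg.isometryGroup F f) : GL ι F) : Matrix ι ι F) := LinearMap.ext fun x => by
    rw [Matrix.toLin'_apply, ← eI_apply hf, MulEquiv.apply_symm_apply]; rfl
  rw [e, LinearMap.det_toLin', det_eq_delta hf hB (hex_of_two_ne h2), MulEquiv.apply_symm_apply,
    delta_refl hB (hex_of_two_ne h2) hv]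
  simp

theorem moveLag {U : Submodule F (ι → F)} (hU : IsLag Q m U) : ∀ (k : ℕ) {W : Submodule F (ι → F)},
    IsLag Q m W → m - finrank F ↥(U ⊓ W) = k →
    ∃ R : (ι → F) ≃ₗ[F] (ι → F), (∀ x, Q (R x) = Q x) ∧ LinearMap.det (R : (ι → F) →ₗ[F] (ι → F)) = (-1) ^ k ∧
      W.map (R : (ι → F) →ₗ[F] (ι → F)) = U := by
  intro k
  induction k with
  | zero =>
    intro W hW hk
    have h1 := Submodule.finrank_mono (inf_le_left : U ⊓ W ≤ U)
    have eU : U ⊓ W = U := Submodule.eq_of_le_of_finrank_le inf_le_left (by have := hU.2; omega)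
    have eW : U = W := Submodule.eq_of_le_of_finrank_le (eU ▸ inf_le_right) (by have := hU.2; have := hW.2; omega)
    exact ⟨LinearEquiv.refl F _, fun _ => rfl, by simp, by simp [eW]⟩
  | succ k ih =>
    intro W hW hk
    obtain ⟨w, hw, hwU⟩ : ∃ w ∈ W, w ∉ U := by
      by_contra! hc
      have e : U ⊓ W = W := inf_eq_right.2 hc
      rw [e, hW.2] at hk; omega
    obtain ⟨u, hu, hne⟩ : ∃ u ∈ U, QuadraticMap.polarBilin Q u w ≠ 0 := by
      by_contra! hc
      exact hwU (mem_lag hB hι hU hc)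
    have hv : Q (u - w) = -QuadraticMap.polarBilin Q u w := by
      rw [sub_eq_add_neg, Witt.quad_add, QuadraticMap.map_neg, hU.1 u hu, hW.1 w hw, map_neg]
      ring
    have hv0 : Q (u - w) ≠ 0 := by rw [hv]; exact neg_ne_zero.2 hne
    let r : (ι → F) ≃ₗ[F] (ι → F) := (refl Q (u - w)).1
    have hr : ∀ x, r x = x - ((Q (u - w))⁻¹ * QuadraticMap.polarBilin Q (u - w) x) • (u - w) := refl_apply Q (u - w)
    have hrQ : ∀ x, Q (r x) = Q x := (refl Q (u - w)).2
    have hrw : r w = u := by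
      rw [hr, show QuadraticMap.polarBilin Q (u - w) w = QuadraticMap.polarBilin Q u w by
        rw [map_sub, LinearMap.sub_apply, polar_zero hW.1 hw hw, sub_zero], hv, inv_neg, neg_mul, inv_mul_cancel₀ hne,
        neg_one_smul, sub_neg_eq_add, add_sub_cancel]
    have hrr : ∀ x, r (r x) = x := fun x =>
      LinearEquiv.congr_fun (congrArg Subtype.val (refl_mul_self Q (u - w))) x
    let W' := W.map (r : (ι → F) →ₗ[F] (ι → F))
    have hW' : IsLag Q m W' := ⟨by rintro _ ⟨x, hx, rfl⟩; exact (hrQ x).trans (hW.1 x hx),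
      (LinearEquiv.finrank_map_eq r W).trans hW.2⟩
    have hfix : ∀ x ∈ U ⊓ W, r x = x := fun x hx => by
      rw [hr, show QuadraticMap.polarBilin Q (u - w) x = 0 by
        rw [map_sub, LinearMap.sub_apply, polar_zero hU.1 hu hx.1, polar_zero hW.1 hw hx.2, sub_zero], mul_zero, zero_smul, sub_zero]
    have hlt : finrank F ↥(U ⊓ W) < finrank F ↥(U ⊓ W') := by
      refine Submodule.finrank_lt_finrank_of_lt (lt_of_le_of_ne (fun x hx => ⟨hx.1, x, hx.2, hfix x hx⟩) fun e => ?_)
      have : u ∈ U ⊓ W := e ▸ (⟨hu, w, hw, hrw⟩ : u ∈ U ⊓ W')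
      exact hne (polar_zero hW.1 this.2 hw)
    have hup : finrank F ↥(U ⊓ W') ≤ finrank F ↥(U ⊓ W) + 1 := by
      let φ : ↥(U ⊓ W') →ₗ[F] F := (QuadraticMap.polarBilin Q (u - w)).comp (U ⊓ W').subtype
      have h := φ.finrank_range_add_finrank_ker
      have h' := (LinearMap.range φ).finrank_le
      rw [finrank_self] at h'
      have hle : (LinearMap.ker φ).map (U ⊓ W').subtype ≤ U ⊓ W := by
        rintro _ ⟨x, hx, rfl⟩
        refine ⟨x.2.1, ?_⟩
        obtain ⟨y, hy, e⟩ := x.2.2
        have e1 : r x.1 = x.1 := by rw [hr, show QuadraticMap.polarBilin Q (u - w) x.1 = 0 from hx, mul_zero, zero_smul, sub_zero]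
        have e2 : y = x.1 := by rw [← e1, ← e]; exact (hrr y).symm
        show x.1 ∈ W
        rw [← e2]; exact hy
      have h'' := Submodule.finrank_mono hle
      rw [Submodule.finrank_map_subtype_eq] at h''
      omega
    obtain ⟨R, hRQ, hRd, hRm⟩ := ih hW' (by have := Submodule.finrank_mono (inf_le_left : U ⊓ W' ≤ U); have := hU.2; omega)
    refine ⟨r.trans R, fun x => (hRQ _).trans (hrQ x), ?_, ?_⟩
    · show LinearMap.det ((R : (ι → F) →ₗ[F] (ι → F)).comp (r : (ι → F) →ₗ[F] (ι → F))) = _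
      rw [LinearMap.det_comp, hRd, det_refl hf hB h2 hv0, pow_succ]
    · rw [← hRm, ← Submodule.map_comp]; rfl

omit h2 [Fintype F] [DecidableEq ι] in
lemma maxTS_isLag {L : Submodule F (ι → F)} (hL : IsLag Q m L) {U : Submodule F (ι → F)}
    (hU : Cfsg.IsMaxTotallySingular f U) : IsLag Q m U := by
  have hU0 : ∀ x ∈ U, Q x = 0 := fun x hx => (hf x).trans (hU.1 x hx)
  refine ⟨hU0, ?_⟩
  let B : LinearMap.BilinForm F (ι → F) := QuadraticMap.polarBilin Q
  have hBs : B.IsRefl := fun a b h => by rw [← h]; exact Witt.polar_symm' Q b a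
  have hsub : L ⊓ B.orthogonal U ≤ U := by
    have hW : Cfsg.Geo.IsTotallySingularQuad f (U ⊔ L ⊓ B.orthogonal U) := by
      intro x hx
      obtain ⟨a, ha, b, hb, rfl⟩ := Submodule.mem_sup.1 hx
      have hab : QuadraticMap.polarBilin Q a b = 0 := hb.2 a ha
      rw [← hf, Witt.quad_add, hU0 a ha, hL.1 b hb.1, hab]; ring
    exact (le_sup_right : L ⊓ B.orthogonal U ≤ _).trans (hU.2 _ hW le_sup_left).le
  have horth : U ⊔ L ≤ B.orthogonal (U ⊓ L) := sup_le
    (fun x hx y hy => polar_zero hU0 hy.1 hx) (fun x hx y hy => polar_zero hL.1 hy.2 hx)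
  have h1 := LinearMap.BilinForm.finrank_orthogonal (B := B) hB U
  have h3 := LinearMap.BilinForm.finrank_orthogonal (B := B) hB (U ⊓ L)
  have h4 := Submodule.finrank_mono horth
  have h5 := Submodule.finrank_sup_add_finrank_inf_eq U L
  have h6 := Submodule.finrank_sup_add_finrank_inf_eq L (B.orthogonal U)
  have h7 : finrank F ↥(L ⊓ B.orthogonal U) ≤ finrank F ↥(U ⊓ L) := Submodule.finrank_mono (le_inf hsub inf_le_left)
  have h8 : L ⊔ B.orthogonal U ≤ B.orthogonal (U ⊓ L) := sup_le
    (fun x hx y hy => polar_zero hL.1 hy.2 hx) (fun x hx y hy => hx y hy.1)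
  have h9 := Submodule.finrank_mono h8
  have h10 := Submodule.finrank_le (U ⊓ L)
  have hle : U ≤ B.orthogonal U := fun y hy u hu => polar_zero hU0 hu hy
  have h11 := Submodule.finrank_mono hle
  have h12 := Submodule.finrank_le U
  rw [Module.finrank_fintype_fun_eq_card, hι] at h1 h3 h12 h10
  have := hL.2
  omega

/-- The criterion. -/
theorem preserves_iff {L : Submodule F (ι → F)} (hL : IsLag Q m L) {g : GL ι F} {μ : F} (hμ : μ ≠ 0)
    (hg : ∀ v, f ((g : Matrix ι ι F) *ᵥ v) = μ * f v) :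
    Cfsg.PreservesSingularClasses f (g : Matrix ι ι F) ↔ (g : Matrix ι ι F).det = μ ^ m := by
  let E := Matrix.toLin' (g : Matrix ι ι F)
  have hEi : Function.Injective E := fun x y h => by
    have := congrArg (fun z => ((g⁻¹ : GL ι F) : Matrix ι ι F) *ᵥ z) h
    simpa [E, Matrix.mulVec_mulVec] using this
  have hEQ : ∀ x, Q (E x) = μ * Q x := fun x => by rw [hf, hf, Matrix.toLin'_apply, hg]
  have key : ∀ U, IsLag Q m U → (g : Matrix ι ι F).det = (-1) ^ (finrank F U - finrank F ↥(U ⊓ Cfsg.imageSubmodule (g : Matrix ι ι F) U)) * μ ^ m := by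
    intro U hU
    have hW : IsLag Q m (U.map E) := ⟨by rintro _ ⟨x, hx, rfl⟩; rw [hEQ, hU.1 x hx, mul_zero],
      (Submodule.equivMapOfInjective E hEi U).finrank_eq.symm.trans hU.2⟩
    obtain ⟨R, hRQ, hRd, hRm⟩ := moveLag hf hB h2 hι hU _ hW rfl
    have hQ' : ∀ x, Q (((R : (ι → F) →ₗ[F] (ι → F)).comp E) x) = μ * Q x := fun x => (hRQ _).trans (hEQ x)
    have hd := det_stab hB hι hU ((R : (ι → F) →ₗ[F] (ι → F)).comp E) (μ := μ) (fun x y => by
      simp only [QuadraticMap.polarBilin_apply_apply, QuadraticMap.polar, ← map_add, hQ']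
      ring) (fun x hx => by
        rw [Submodule.mem_comap, LinearMap.comp_apply, ← hRm]
        exact Submodule.mem_map_of_mem (Submodule.mem_map_of_mem hx))
    rw [LinearMap.det_comp, hRd, LinearMap.det_toLin'] at hd
    rw [hU.2, ← hd, ← mul_assoc, Cfsg.imageSubmodule, ← mul_pow, neg_mul_neg, one_mul, one_pow, one_mul]
  constructor
  · intro hp
    have hmax : Cfsg.IsMaxTotallySingular f L := ⟨fun x hx => (hf x).symm.trans (hL.1 x hx), fun W hW hLW => by
      refine le_antisymm (fun x hx => mem_lag hB hι hL fun u hu => ?_) hLW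
      exact polar_zero (fun y hy => (hf y).trans (hW y hy)) (hLW hu) hx⟩
    rw [key L hL, (hp L hmax).neg_one_pow, one_mul]
  · intro hd U hU
    have h := key U (maxTS_isLag hf hB hι hL hU)
    rw [hd] at h
    rcases Nat.even_or_odd (finrank F U - finrank F ↥(U ⊓ Cfsg.imageSubmodule (g : Matrix ι ι F) U)) with he | ho
    · exact he
    · exfalso
      rw [ho.neg_one_pow] at h
      exact pow_ne_zero m hμ ((mul_eq_zero.1 (show (2 : F) * μ ^ m = 0 by linear_combination h)).resolve_left h2)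

end Cfsg.Lib.Classical.OrthAut
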