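import Mathlib
import Cfsg.Agent.Lib.Classical.OrthAut.Struct
import Cfsg.Agent.Lib.Classical.QuadOrders
import Cfsg.Agent.Lib.Classical.Similitude
import Cfsg.Agent.Lib.Classical.ClassicalOrders
import Cfsg.Agent.Lib.Classical.SphereMod

/-! The standing data of `OrthAut.Struct` for the plus and minus forms. -/

set_option autoImplicit false

namespace Cfsg.Lib.Classical.OrthAut

open Module
open scoped Matrix

universe u

variable {F : Type u} [Field F] [Fintype F] {m : ℕ}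

/-- A similarity from a matrix whose square is a scalar. -/
lemma exists_sim {ι : Type} [Fintype ι] [DecidableEq ι] {f : (ι → F) → F} {d : F} (hd : d ≠ 0) {A : Matrix ι ι F}
    (hA : A * A = d • 1) (hf : ∀ v, f (A *ᵥ v) = d * f v) :
    ∃ δ : Cfsg.Geo.quadSimilarityGroup (F := F) f, (δ.1 : Matrix ι ι F) = A ∧
      (∀ v, f ((δ.1 : Matrix ι ι F) *ᵥ v) = d * f v) ∧ δ.1 * δ.1 ∈ Cfsg.Geo.scalars ι F :=
  ⟨⟨⟨A, d⁻¹ • A, by rw [Matrix.mul_smul, hA, smul_smul, inv_mul_cancel₀ hd, one_smul],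
      by rw [Matrix.smul_mul, hA, smul_smul, inv_mul_cancel₀ hd, one_smul]⟩, Units.mk0 d hd, hf⟩, rfl, hf,
    mem_scalars_iff.2 ⟨d, hd, hA⟩⟩

/-- The swap of the two halves, scaled. -/
def swapMat (m : ℕ) (d : F) : Matrix (Fin m ⊕ Fin m) (Fin m ⊕ Fin m) F := Matrix.fromBlocks 0 1 (d • 1) 0

lemma swapMat_sq (d : F) : swapMat m d * swapMat m d = d • 1 := by
  rw [swapMat, Matrix.fromBlocks_multiply, ← Matrix.fromBlocks_one, Matrix.fromBlocks_smul]
  simp

lemma swapMat_form (d : F) (v : Fin m ⊕ Fin m → F) :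
    Cfsg.quadFormPlus m F (swapMat m d *ᵥ v) = d * Cfsg.quadFormPlus m F v := by
  simp [Cfsg.quadFormPlus, swapMat, Matrix.fromBlocks_mulVec, Finset.mul_sum, Matrix.smul_mulVec]
  exact Finset.sum_congr rfl fun i _ => by ring

lemma swapMat_det (d : F) : (swapMat m d).det = (-1) ^ m * d ^ m := by
  have e : swapMat m d = Matrix.fromBlocks 1 (-1) 0 1 * Matrix.fromBlocks 1 0 1 1 * Matrix.fromBlocks 1 (-1) 0 1 *
      Matrix.fromBlocks (d • 1) 0 0 (-1) := by
    simp [swapMat, Matrix.fromBlocks_multiply]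
  rw [e, Matrix.det_mul, Matrix.det_mul, Matrix.det_mul, Matrix.det_fromBlocks_zero₂₁, Matrix.det_fromBlocks_zero₁₂,
    Matrix.det_fromBlocks_zero₁₂, Matrix.det_smul, Matrix.det_neg]
  simp [mul_comm]

theorem plusData (hodd : Odd (Fintype.card F)) (hm : 3 ≤ m) : ∃ D : Data (Cfsg.quadFormPlus m F) m, (D.δ.1 : Matrix (Fin m ⊕ Fin m) (Fin m ⊕ Fin m) F).det = (-1) ^ m * D.d ^ m := by
  have h2 := ClassicalOrders.two_ne rfl hodd
  obtain ⟨d, hd⟩ := FiniteField.exists_nonsquare (F := F) (fun e => h2 (by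
    haveI := ringChar.of_eq e; exact CharTwo.two_eq_zero))
  obtain ⟨δ, hcoe, hδ, hδ2⟩ := exists_sim (fun h : d = 0 => hd (h ▸ IsSquare.zero)) (swapMat_sq (m := m) d) (swapMat_form d)
  exact ⟨{
    Q := (QuadOrders.Qs m (QuadOrders.Q0 (F := F))).comp (QuadOrders.ePlus F m).toLinearMap
    hf := fun v => QuadOrders.ePlus_form m v
    hB := QuadOrders.nondeg_comp _ (QuadOrders.nondeg_std QuadOrders.Q0_nondeg)
    h2 := h2
    T := OmegaCentre.stdTriple hm _ _
    hm := hm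
    hι := by simp; omega
    δ := δ
    d := d
    hd := hd
    hδ := hδ
    hδ2 := hδ2 }, by rw [hcoe]; exact swapMat_det d⟩

theorem minusData (hodd : Odd (Fintype.card F)) (hm : 3 ≤ m) {a b : F}
    (hab : ∀ z₁ z₂ : F, z₁ ^ 2 + a * z₁ * z₂ + b * z₂ ^ 2 = 0 → z₁ = 0 ∧ z₂ = 0) :
    ∃ D : Data (Cfsg.quadFormMinus m F a b) (m + 1),
      (D.δ.1 : Matrix ((Fin m ⊕ Fin m) ⊕ Fin 2) ((Fin m ⊕ Fin m) ⊕ Fin 2) F).det = (-1) ^ (m + 1) * D.d ^ (m + 1) := by
  have h2 := ClassicalOrders.two_ne rfl hodd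
  obtain ⟨d, hd⟩ := FiniteField.exists_nonsquare (F := F) (fun e => h2 (by
    haveI := ringChar.of_eq e; exact CharTwo.two_eq_zero))
  have hD : (4 : F) * b - a ^ 2 ≠ 0 := by
    intro e
    refine one_ne_zero (hab (-a / 2) 1 ?_).2
    field_simp
    linear_combination e
  obtain ⟨x, y, hxy⟩ := Cfsg.Agent.Similitude.exists_value a b d hD
  let M : Matrix (Fin 2) (Fin 2) F := !![x, a * x + b * y; y, -x]
  have hM : M * M = d • 1 := by
    ext i j
    fin_cases i <;> fin_cases j <;> simp [M, Matrix.mul_apply, Fin.sum_univ_two] <;>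
      first | linear_combination hxy | linear_combination (0 : F) * hxy
  let A : Matrix ((Fin m ⊕ Fin m) ⊕ Fin 2) ((Fin m ⊕ Fin m) ⊕ Fin 2) F := Matrix.fromBlocks (swapMat m d) 0 0 M
  have hA : A * A = d • 1 := by
    rw [Matrix.fromBlocks_multiply, ← Matrix.fromBlocks_one, Matrix.fromBlocks_smul]
    simp [swapMat_sq, hM]
  have hf : ∀ v, Cfsg.quadFormMinus m F a b (A *ᵥ v) = d * Cfsg.quadFormMinus m F a b v := by
    intro v
    have h := swapMat_form d (v ∘ Sum.inl)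
    simp only [Cfsg.quadFormPlus, Function.comp_apply] at h
    simp only [Cfsg.quadFormMinus, A, Matrix.fromBlocks_mulVec, Matrix.zero_mulVec, add_zero, zero_add, Sum.elim_inr,
      Sum.elim_inl]
    rw [h]
    simp [M, Matrix.mulVec, dotProduct, Fin.sum_univ_two]
    linear_combination (v (Sum.inr 0) ^ 2 + a * v (Sum.inr 0) * v (Sum.inr 1) + b * v (Sum.inr 1) ^ 2) * hxy
  obtain ⟨δ, hcoe, hδ, hδ2⟩ := exists_sim (fun h : d = 0 => hd (h ▸ IsSquare.zero)) hA hf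
  exact ⟨{
    Q := (QuadOrders.Qs m (QuadOrders.Q2 a b)).comp (QuadOrders.eMinus F m).toLinearMap
    hf := fun v => QuadOrders.eMinus_form m a b v
    hB := QuadOrders.nondeg_comp _ (QuadOrders.nondeg_std (QuadOrders.Q2_nondeg hab))
    h2 := h2
    T := OmegaCentre.stdTriple hm _ _
    hm := by omega
    hι := by simp; omega
    δ := δ
    d := d
    hd := hd
    hδ := hδ
    hδ2 := hδ2 }, by
      rw [hcoe, Matrix.det_fromBlocks_zero₂₁, swapMat_det, Matrix.det_fin_two_of]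
      linear_combination -((-1 : F) ^ m * d ^ m) * hxy⟩

lemma pow_mod_four {q k : ℕ} (hq : Odd q) : (q ^ k % 4 = 1 ↔ ¬(Odd k ∧ q % 4 = 3)) ∧ (q ^ k % 4 = 3 ↔ Odd k ∧ q % 4 = 3) := by
  have h : q % 4 = 1 ∨ q % 4 = 3 := by obtain ⟨t, rfl⟩ := hq; omega
  rcases Nat.even_or_odd k with he | ho
  · obtain ⟨j, rfl⟩ := he
    rw [← two_mul, pow_mul, Nat.pow_mod, Nat.pow_mod q]
    rcases h with e | e <;> simp [e]
  · obtain ⟨j, rfl⟩ := ho
    rw [pow_succ, pow_mul, Nat.mul_mod, Nat.pow_mod, Nat.pow_mod q]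
    rcases h with e | e <;> simp [e]

end Cfsg.Lib.Classical.OrthAut
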