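import Mathlib
import Cfsg.Agent.Lib.Classical.OrthAut.Classes
import Cfsg.Agent.Lib.Classical.OrthAut.Forms

/-! Inner-diagonal automorphisms of `PΩ±` modulo the inner ones. -/

set_option autoImplicit false

namespace Cfsg.Lib.Classical.OrthAut

open Module Reflections OrthMatrix Spinor
open scoped Matrix MatrixGroups

universe u

lemma klein_of_two_involutions {M : Type*} [Group M] (h4 : Nat.card M = 4) {a b : M} (ha : a ≠ 1) (hb : b ≠ 1) (hab : a ≠ b)
    (haa : a * a = 1) (hbb : b * b = 1) : Nonempty (M ≃* Multiplicative (ZMod 2 × ZMod 2)) := by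
  classical
  haveI : Finite M := Nat.finite_of_card_ne_zero (by omega)
  letI := Fintype.ofFinite M
  haveI : Fact (Nat.Prime 2) := ⟨Nat.prime_two⟩
  letI : CommGroup M := IsPGroup.commGroupOfCardEqPrimeSq (p := 2) (by rw [h4]; norm_num)
  have hab1 : a * b ≠ 1 := fun e => hab (by rw [eq_inv_of_mul_eq_one_left e, inv_eq_of_mul_eq_one_right hbb])
  have huniv : (Finset.univ : Finset M) = {1, a, b, a * b} := by
    refine (Finset.eq_univ_of_card _ ?_).symm
    rw [← Nat.card_eq_fintype_card, h4, Finset.card_insert_of_notMem, Finset.card_insert_of_notMem,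
      Finset.card_insert_of_notMem, Finset.card_singleton]
    · simpa using fun e : a = 1 => ha e
    · simp only [Finset.mem_insert, Finset.mem_singleton, not_or]
      exact ⟨hab, fun e => hb (left_eq_mul.1 e)⟩
    · simp only [Finset.mem_insert, Finset.mem_singleton, not_or]
      exact ⟨ha.symm, hb.symm, hab1.symm⟩
  have hsq : ∀ x : M, x ^ 2 = 1 := fun x => by
    have := Finset.mem_univ x
    rw [huniv] at this
    simp only [Finset.mem_insert, Finset.mem_singleton] at this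
    rcases this with rfl | rfl | rfl | rfl <;> simp [pow_two, haa, hbb, mul_mul_mul_comm]
  haveI : IsKleinFour M := ⟨h4, Nat.dvd_antisymm (Monoid.exponent_dvd_of_forall_pow_eq_one hsq) (by
    rw [← orderOf_eq_prime (p := 2) (by rw [pow_two]; exact haa) ha]
    exact Monoid.order_dvd_exponent a)⟩
  exact IsKleinFour.nonempty_mulEquiv

lemma cyclic_of_not_involution {M : Type*} [Group M] (h4 : Nat.card M = 4) {x : M} (hx : x * x ≠ 1) :
    Nonempty (M ≃* Multiplicative (ZMod 4)) := by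
  haveI : Finite M := Nat.finite_of_card_ne_zero (by omega)
  have hd : orderOf x ∣ 4 := h4 ▸ orderOf_dvd_natCard x
  have h4' : orderOf x = 4 := by
    have h1 : orderOf x ≠ 1 := fun e => hx (by rw [orderOf_eq_one_iff.1 e, one_mul])
    have h2 : orderOf x ≠ 2 := fun e => hx (by have := pow_orderOf_eq_one x; rwa [e, pow_two] at this)
    have := Nat.le_of_dvd (by norm_num) hd
    interval_cases h : orderOf x <;> omega
  have : IsCyclic M := isCyclic_of_orderOf_eq_card x (by rw [h4, h4'])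
  exact ⟨(zmodCyclicMulEquiv this).symm.trans (AddEquiv.toMultiplicative (ZMod.ringEquivCongr h4).toAddEquiv)⟩

/-- A quotient of order four with an element whose square is nontrivial. -/
lemma four_cyclic {A : Type*} [Group A] (R I : Subgroup A) [I.Normal] (h4 : I.relIndex R = 4) {x : A} (hx : x ∈ R)
    (hx2 : x * x ∉ I) : ∃ φ : ↥R →* Multiplicative (ZMod 4), Function.Surjective φ ∧ φ.ker = I.subgroupOf R := by
  obtain ⟨e⟩ := cyclic_of_not_involution (M := ↥R ⧸ I.subgroupOf R) h4 (x := QuotientGroup.mk ⟨x, hx⟩) (by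
    rw [← QuotientGroup.mk_mul, Ne, QuotientGroup.eq_one_iff, Subgroup.mem_subgroupOf]; exact hx2)
  exact ⟨e.toMonoidHom.comp (QuotientGroup.mk' _), e.surjective.comp (QuotientGroup.mk'_surjective _), by
    ext z
    show e (QuotientGroup.mk' _ z) = 1 ↔ _
    rw [EmbeddingLike.map_eq_one_iff, ← MonoidHom.mem_ker, QuotientGroup.ker_mk']⟩

/-- A quotient of order four with two involutions. -/
lemma four_klein {A : Type*} [Group A] (R I : Subgroup A) [I.Normal] (h4 : I.relIndex R = 4) {x y : A} (hx : x ∈ R) (hy : y ∈ R)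
    (hx1 : x ∉ I) (hy1 : y ∉ I) (hxy : x⁻¹ * y ∉ I) (hx2 : x * x ∈ I) (hy2 : y * y ∈ I) :
    ∃ φ : ↥R →* Multiplicative (ZMod 2 × ZMod 2), Function.Surjective φ ∧ φ.ker = I.subgroupOf R := by
  obtain ⟨e⟩ := klein_of_two_involutions (M := ↥R ⧸ I.subgroupOf R) h4 (a := QuotientGroup.mk ⟨x, hx⟩)
    (b := QuotientGroup.mk ⟨y, hy⟩) (by rw [Ne, QuotientGroup.eq_one_iff, Subgroup.mem_subgroupOf]; exact hx1)
    (by rw [Ne, QuotientGroup.eq_one_iff, Subgroup.mem_subgroupOf]; exact hy1)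
    (by rw [Ne, QuotientGroup.eq, Subgroup.mem_subgroupOf]; exact hxy)
    (by rw [← QuotientGroup.mk_mul, QuotientGroup.eq_one_iff, Subgroup.mem_subgroupOf]; exact hx2)
    (by rw [← QuotientGroup.mk_mul, QuotientGroup.eq_one_iff, Subgroup.mem_subgroupOf]; exact hy2)
  exact ⟨e.toMonoidHom.comp (QuotientGroup.mk' _), e.surjective.comp (QuotientGroup.mk'_surjective _), by
    ext z
    show e (QuotientGroup.mk' _ z) = 1 ↔ _
    rw [EmbeddingLike.map_eq_one_iff, ← MonoidHom.mem_ker, QuotientGroup.ker_mk']⟩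

/-- The sign as an element of `ZMod 2`. -/
noncomputable def two : ℤˣ →* Multiplicative (ZMod 2) := Spinor.invHom (Multiplicative.ofAdd (1 : ZMod 2)) (by decide)

lemma two_bijective : Function.Bijective two := by
  have h : ∀ p : ℤˣ, two p = if p = 1 then 1 else Multiplicative.ofAdd (1 : ZMod 2) := fun p => rfl
  rw [show (⇑two) = fun p => _ from funext h]
  decide

variable {ι : Type} [Fintype ι] [DecidableEq ι] {F : Type u} [Field F] [Fintype F] {f : (ι → F) → F}

namespace Data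

variable {m : ℕ} (D : Data f m)
include D

/-- The similarities preserving the two classes. -/
noncomputable def P : Subgroup (Cfsg.Geo.quadSimilarityGroup (F := F) f) := ((MonoidHom.snd ℤˣ ℤˣ).comp D.chi).ker

lemma mem_P (g : Cfsg.Geo.quadSimilarityGroup (F := F) f) : g ∈ D.P ↔ (g.1 : Matrix ι ι F).det = (D.mult g : F) ^ m :=
  D.chi_snd g

lemma so_le_P : SO f ≤ D.P := fun g hg => by
  show (D.chi g).2 = 1
  rw [MonoidHom.mem_ker.1 (D.so_le_ker hg)]; rfl

lemma chi_delta_snd (hdet : (D.δ.1 : Matrix ι ι F).det = (-1) ^ m * D.d ^ m) : (D.chi D.δ).2 = 1 ↔ Even m := by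
  rw [D.chi_snd, D.mult_eq D.hδ, hdet]
  rcases Nat.even_or_odd m with he | ho
  · simp [he, he.neg_one_pow]
  · rw [ho.neg_one_pow, neg_one_mul]
    exact iff_of_false (D.neg_ne (pow_ne_zero _ fun h => D.hd (h ▸ IsSquare.zero))) (Nat.not_even_iff_odd.2 ho)

/-- Generator of `P` modulo `SO`. -/
lemma exists_P_nonsquare : ∃ g ∈ D.P, (D.chi g).1 = -1 := by
  obtain ⟨g, hg⟩ := D.chi_surj (-1, 1)
  exact ⟨g, by show (D.chi g).2 = 1; rw [hg], by rw [hg]⟩

theorem P_mod_so : ∃ φ : ↥(D.P.map psi) →* Multiplicative (ZMod 2),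
    Function.Surjective φ ∧ φ.ker = (Cfsg.psoAut F f).subgroupOf (D.P.map psi) := by
  have hr : (psi.comp D.P.subtype).range = D.P.map psi := by rw [MonoidHom.range_comp, Subgroup.range_subtype]
  have hm : ((SO f).subgroupOf D.P).map (psi.comp D.P.subtype) = Cfsg.psoAut F f := by
    rw [psoAut_eq, ← Subgroup.map_map, Subgroup.subgroupOf_map_subtype, inf_eq_left.2 D.so_le_P]
  rw [← hr, ← hm]
  refine exists_descend (psi.comp D.P.subtype) ((two.comp ((MonoidHom.fst ℤˣ ℤˣ).comp D.chi)).comp D.P.subtype) ?_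
    ((SO f).subgroupOf D.P) ?_ ?_ ?_
  · intro z
    obtain ⟨y, rfl⟩ := two_bijective.2 z
    obtain ⟨g, hg⟩ := D.chi_surj (y, 1)
    exact ⟨⟨g, by show (D.chi g).2 = 1; rw [hg]⟩, by simp [hg]⟩
  · intro g hg
    rw [MonoidHom.mem_ker]
    simp [MonoidHom.mem_ker.1 (D.so_le_ker (Subgroup.mem_subgroupOf.1 hg))]
  · intro g hg
    have h1 : (D.chi g.1).1 = 1 := two_bijective.1 (by rw [map_one]; exact hg)
    obtain ⟨h, hh, e⟩ := D.ker_chi g.1 (Prod.ext h1 g.2)
    exact ⟨⟨h, D.so_le_P hh⟩, hh, e⟩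
  · intro g hg
    rw [MonoidHom.mem_ker]
    simp [MonoidHom.mem_ker.1 (D.ker_le (show g.1 ∈ (psi (f := f)).ker from hg))]

theorem inndiag_no (hno : ¬ ∃ g : Cfsg.isometryGroup F f, g ∈ Cfsg.Omega F f ∧ ((g : GL ι F) : Matrix ι ι F) = -1) :
    ∃ φ : ↥(D.P.map psi) →* Multiplicative (ZMod 2),
    Function.Surjective φ ∧ φ.ker = (Cfsg.Inn (Cfsg.POmega F f)).subgroupOf (D.P.map psi) := by
  rw [D.inn_eq_pso hno]; exact D.P_mod_so

lemma refS_delta_sq : psi ((D.refS D.u * D.δ) * (D.refS D.u * D.δ)) = psi D.comm := by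
  have h2 : psi D.δ⁻¹ = psi D.δ := by
    rw [map_inv]; exact inv_eq_of_mul_eq_one_left (by rw [← map_mul, psi_scalar (g := D.δ * D.δ) D.hδ2])
  rw [comm, map_mul psi (D.refS D.u * D.δ), map_mul psi (D.refS D.u * D.δ), map_mul, map_mul psi _ D.δ⁻¹, h2]

theorem inndiag_yes (hyes : ∃ g : Cfsg.isometryGroup F f, g ∈ Cfsg.Omega F f ∧ ((g : GL ι F) : Matrix ι ι F) = -1)
    (hdet : (D.δ.1 : Matrix ι ι F).det = (-1) ^ m * D.d ^ m) :
    (Odd m → ∃ φ : ↥(D.P.map psi) →* Multiplicative (ZMod 4),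
      Function.Surjective φ ∧ φ.ker = (Cfsg.Inn (Cfsg.POmega F f)).subgroupOf (D.P.map psi)) ∧
    (Even m → ∃ φ : ↥(D.P.map psi) →* Multiplicative (ZMod 2 × ZMod 2),
      Function.Surjective φ ∧ φ.ker = (Cfsg.Inn (Cfsg.POmega F f)).subgroupOf (D.P.map psi)) := by
  haveI hN : (Cfsg.Inn (Cfsg.POmega F f)).Normal := ⟨fun x hx g => by
    obtain ⟨y, rfl⟩ := hx
    exact ⟨g y, MulEquiv.ext fun z => by simp⟩⟩
  obtain ⟨φ0, hφ0, hk0⟩ := D.P_mod_so
  have hle : Cfsg.psoAut F f ≤ D.P.map psi := by rw [psoAut_eq]; exact Subgroup.map_mono D.so_le_P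
  have h4 : (Cfsg.Inn (Cfsg.POmega F f)).relIndex (D.P.map psi) = 4 := by
    have h2 : (Cfsg.psoAut F f).relIndex (D.P.map psi) = 2 := by
      rw [Subgroup.relIndex, ← hk0, Subgroup.index_ker, MonoidHom.range_eq_top.2 hφ0, Subgroup.card_top]
      simp
    have := Subgroup.relIndex_mul_relIndex _ _ _ D.inn_le hle
    rw [D.relIndex_two hyes, h2] at this
    exact this.symm
  have hcne := D.theta_neg_not_inn hyes D.comm_so D.comm_theta
  have hc : psi D.comm ∈ Cfsg.psoAut F f := by rw [psoAut_eq]; exact ⟨_, D.comm_so, rfl⟩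
  constructor
  · intro ho
    have hs : (D.chi D.δ).2 = -1 :=
      (Int.units_eq_one_or _).resolve_left fun h => Nat.not_even_iff_odd.2 ho ((D.chi_delta_snd hdet).1 h)
    have hxP : D.refS D.u * D.δ ∈ D.P := by
      show (D.chi (D.refS D.u * D.δ)).2 = 1
      rw [map_mul, Prod.snd_mul, D.chi_refS, hs]; rfl
    refine four_cyclic _ _ h4 (Subgroup.mem_map_of_mem psi hxP) ?_
    rw [← map_mul, D.refS_delta_sq]
    exact hcne
  · intro he
    have hδP : D.δ ∈ D.P := (D.chi_delta_snd hdet).2 he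
    have hdnot : psi D.δ ∉ Cfsg.psoAut F f := fun h => by
      rw [psoAut_eq] at h
      obtain ⟨g, hg, e⟩ := h
      have h1 : g⁻¹ * D.δ ∈ D.chi.ker := D.ker_le (by rw [MonoidHom.mem_ker, map_mul, map_inv, e, inv_mul_cancel])
      rw [MonoidHom.mem_ker, map_mul, map_inv, MonoidHom.mem_ker.1 (D.so_le_ker hg), inv_one, one_mul] at h1
      have := congrArg Prod.fst h1
      rw [D.chi_delta] at this
      exact absurd this (by decide)
    refine four_klein _ _ h4 (Subgroup.mem_map_of_mem psi hδP) (Subgroup.mem_map_of_mem psi (D.so_le_P D.comm_so))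
      (fun h => hdnot (D.inn_le h)) hcne (fun h => hdnot (inv_mem_iff.1 ((Subgroup.mul_mem_cancel_right _ hc).1 (D.inn_le h)))) ?_ ?_
    · rw [← map_mul, psi_scalar (g := D.δ * D.δ) D.hδ2]; exact one_mem _
    · exact Subgroup.mem_subgroupOf.1 (Subgroup.mul_self_mem_of_index_two (D.relIndex_two hyes) ⟨_, hc⟩)

theorem autSub_P {C : GL ι F → Prop} (hC : ∀ g : Cfsg.Geo.quadSimilarityGroup (F := F) f, C g.1 ↔ g ∈ D.P) :
    Cfsg.autSubgroupOf (fun β => ∃ g : GL ι F, g ∈ Cfsg.Geo.quadSimilarityGroup (F := F) f ∧ C g ∧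
      Cfsg.IsInducedBySemilinearPOmega f g (RingEquiv.refl F) β) = D.P.map psi := by
  refine le_antisymm ((Subgroup.closure_le _).2 ?_) ?_
  · rintro β ⟨g, hg, hc, hβ⟩
    exact ⟨⟨g, hg⟩, (hC ⟨g, hg⟩).1 hc, ((induced_iff ⟨g, hg⟩ β).1 hβ).symm⟩
  · rintro _ ⟨g, hg, rfl⟩
    exact Subgroup.subset_closure ⟨g.1, g.2, (hC g).2 hg, (induced_iff g _).2 rfl⟩

end Data

section minus

variable {m : ℕ} {a b : F} {K : Type u} [Field K] [Algebra F K]

omit [Fintype F] in
lemma minus_map (v : (Fin m ⊕ Fin m) ⊕ Fin 2 → F) :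
    Cfsg.quadFormMinus m K (algebraMap F K a) (algebraMap F K b) (fun i => algebraMap F K (v i)) =
      algebraMap F K (Cfsg.quadFormMinus m F a b v) := by
  simp [Cfsg.quadFormMinus, map_sum]

omit [Fintype F] in
/-- A similarity stays one over an extension field. -/
lemma sim_ext (h2 : (2 : F) ≠ 0) {g : Matrix ((Fin m ⊕ Fin m) ⊕ Fin 2) ((Fin m ⊕ Fin m) ⊕ Fin 2) F} {μ : F}
    (hg : ∀ v, Cfsg.quadFormMinus m F a b (g *ᵥ v) = μ * Cfsg.quadFormMinus m F a b v)
    {QK : QuadraticForm K ((Fin m ⊕ Fin m) ⊕ Fin 2 → K)}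
    (hQK : ∀ v, QK v = Cfsg.quadFormMinus m K (algebraMap F K a) (algebraMap F K b) v) (v : (Fin m ⊕ Fin m) ⊕ Fin 2 → K) :
    Cfsg.quadFormMinus m K (algebraMap F K a) (algebraMap F K b) (g.map (algebraMap F K) *ᵥ v) =
      algebraMap F K μ * Cfsg.quadFormMinus m K (algebraMap F K a) (algebraMap F K b) v := by
  classical
  let h := algebraMap F K
  let E := Matrix.toLin' (g.map h)
  have hE : ∀ w : (Fin m ⊕ Fin m) ⊕ Fin 2 → F, E (h ∘ w) = h ∘ (g *ᵥ w) := fun w => funext fun i => by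
    rw [Matrix.toLin'_apply, Function.comp_apply, RingHom.map_mulVec]
  have hB : (QuadraticMap.polarBilin QK).compl₁₂ E E = h μ • QuadraticMap.polarBilin QK := by
    refine LinearMap.ext_basis (Pi.basisFun K _) (Pi.basisFun K _) fun i j => ?_
    have e : ∀ k, (Pi.basisFun K ((Fin m ⊕ Fin m) ⊕ Fin 2)) k = h ∘ (Pi.single k (1 : F)) := fun k => funext fun l => by
      simp [Pi.single_apply, apply_ite h]
    have hadd : ∀ x y : (Fin m ⊕ Fin m) ⊕ Fin 2 → F, (h ∘ x) + (h ∘ y) = h ∘ (x + y) := fun x y => funext fun l => by simp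
    simp only [LinearMap.compl₁₂_apply, LinearMap.smul_apply, e, hE, QuadraticMap.polarBilin_apply_apply,
      QuadraticMap.polar, hadd, hQK, smul_eq_mul]
    simp only [Function.comp_def, h, minus_map, ← map_sub, ← map_mul, ← Matrix.mulVec_add, hg]
    rw [mul_sub, mul_sub]
  have h2K : (2 : K) ≠ 0 := by rw [← map_ofNat h 2]; exact (map_ne_zero_iff h h.injective).2 h2
  have hv := LinearMap.congr_fun (LinearMap.congr_fun hB v) v
  rw [LinearMap.compl₁₂_apply, LinearMap.smul_apply, LinearMap.smul_apply, Witt.polar_self', Witt.polar_self', smul_eq_mul,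
    hQK, hQK, Matrix.toLin'_apply] at hv
  exact mul_left_cancel₀ h2K (hv.trans (by ring))

theorem preserves_minus_iff (hodd : Odd (Fintype.card F)) (hab : ∀ z₁ z₂ : F, z₁ ^ 2 + a * z₁ * z₂ + b * z₂ ^ 2 = 0 → z₁ = 0 ∧ z₂ = 0)
    {g : GL ((Fin m ⊕ Fin m) ⊕ Fin 2) F} {μ : F} (hμ : μ ≠ 0)
    (hg : ∀ v, Cfsg.quadFormMinus m F a b ((g : Matrix ((Fin m ⊕ Fin m) ⊕ Fin 2) ((Fin m ⊕ Fin m) ⊕ Fin 2) F) *ᵥ v) = μ * Cfsg.quadFormMinus m F a b v) :
    Cfsg.PreservesSingularClassesMinus m a b (g : Matrix ((Fin m ⊕ Fin m) ⊕ Fin 2) ((Fin m ⊕ Fin m) ⊕ Fin 2) F) ↔ (g : Matrix ((Fin m ⊕ Fin m) ⊕ Fin 2) ((Fin m ⊕ Fin m) ⊕ Fin 2) F).det = μ ^ (m + 1) := by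
  classical
  have h2 := ClassicalOrders.two_ne rfl hodd
  have main : ∀ (K : Type u) (_ : Field K) (_ : Algebra F K), finrank F K = 2 →
      (Cfsg.PreservesSingularClasses (Cfsg.quadFormMinus m K (algebraMap F K a) (algebraMap F K b))
        ((g : Matrix ((Fin m ⊕ Fin m) ⊕ Fin 2) ((Fin m ⊕ Fin m) ⊕ Fin 2) F).map (algebraMap F K)) ↔ (g : Matrix ((Fin m ⊕ Fin m) ⊕ Fin 2) ((Fin m ⊕ Fin m) ⊕ Fin 2) F).det = μ ^ (m + 1)) := by
    intro K _ _ hK
    haveI : Module.Finite F K := Module.finite_of_finrank_pos (by omega)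
    haveI : Finite K := Module.finite_of_finite F
    letI := Fintype.ofFinite K
    have hcard : Fintype.card K = Fintype.card F ^ 2 := by rw [← hK]; exact Module.card_eq_pow_finrank
    have h2K : (2 : K) ≠ 0 := by
      rw [← map_ofNat (algebraMap F K) 2]; exact (map_ne_zero_iff _ (algebraMap F K).injective).2 h2
    have hchar : ringChar K ≠ 2 := fun e => h2K (by haveI := ringChar.of_eq e; exact CharTwo.two_eq_zero)
    have hD : a ^ 2 - 4 * b ≠ 0 := by
      intro e
      refine one_ne_zero (hab (-a / 2) 1 ?_).2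
      field_simp
      linear_combination -e
    obtain ⟨s, hs⟩ : IsSquare (algebraMap F K (a ^ 2 - 4 * b)) := by
      obtain ⟨k, hk⟩ := hodd
      rw [FiniteField.isSquare_iff hchar ((map_ne_zero_iff _ (algebraMap F K).injective).2 hD), hcard, hk,
        show (2 * k + 1) ^ 2 / 2 = 2 * k * (k + 1) by
          rw [show (2 * k + 1) ^ 2 = 1 + 2 * (2 * k * (k + 1)) by ring, Nat.add_mul_div_left _ _ two_pos]; simp,
        pow_mul, ← map_pow, show a ^ 2 - 4 * b = a ^ 2 - 4 * b from rfl,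
        show 2 * k = Fintype.card F - 1 by omega, FiniteField.pow_card_sub_one_eq_one _ hD, map_one, one_pow]
    let θ : K := (s - algebraMap F K a) / 2
    have hθ : θ ^ 2 + algebraMap F K a * θ + algebraMap F K b = 0 := by
      simp only [θ]
      field_simp
      rw [map_sub, map_pow, map_mul, map_ofNat] at hs
      linear_combination -hs
    have habK : ((4 : K) * algebraMap F K b - algebraMap F K a ^ 2) ≠ 0 := by
      rw [← map_pow, ← map_ofNat (algebraMap F K) 4, ← map_mul, ← map_sub]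
      exact (map_ne_zero_iff _ (algebraMap F K).injective).2 fun e => hD (by linear_combination -e)
    let QK : QuadraticForm K ((Fin m ⊕ Fin m) ⊕ Fin 2 → K) :=
      (QuadOrders.Qs m (QuadOrders.Q2 (algebraMap F K a) (algebraMap F K b))).comp (QuadOrders.eMinus K m).toLinearMap
    have hQK : ∀ v, QK v = Cfsg.quadFormMinus m K (algebraMap F K a) (algebraMap F K b) v :=
      fun v => QuadOrders.eMinus_form m _ _ v
    have hBK : (QuadraticMap.polarBilin QK).Nondegenerate := by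
      refine QuadOrders.nondeg_comp _ (QuadOrders.nondeg_std ?_)
      refine QuadOrders.nondeg_of_left (fun x y => Witt.polar_symm' _ x y) fun x hx => ?_
      have e0 := hx (1, 0)
      have e1 := hx (0, 1)
      simp [QuadraticMap.polar, QuadOrders.Q2_apply] at e0 e1
      refine Prod.ext ?_ ?_
      · exact (mul_eq_zero.1 (show (4 * algebraMap F K b - algebraMap F K a ^ 2) * x.1 = 0 by
          linear_combination 2 * algebraMap F K b * e0 - algebraMap F K a * e1)).resolve_left habK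
      · exact (mul_eq_zero.1 (show (4 * algebraMap F K b - algebraMap F K a ^ 2) * x.2 = 0 by
          linear_combination 2 * e1 - algebraMap F K a * e0)).resolve_left habK
    let j : (Fin m → K) × K →ₗ[K] ((Fin m ⊕ Fin m) ⊕ Fin 2 → K) :=
      { toFun := fun p => Sum.elim (Sum.elim p.1 0) ![p.2 * θ, p.2]
        map_add' := fun p q => by
          funext i; rcases i with (i | i) | i <;> [skip; skip; fin_cases i] <;> simp [add_mul]
        map_smul' := fun c p => by
          funext i; rcases i with (i | i) | i <;> [skip; skip; fin_cases i] <;> simp [mul_assoc] }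
    have hj : Function.Injective j := fun p q h => Prod.ext (funext fun i => congrFun h (Sum.inl (Sum.inl i)))
      (congrFun h (Sum.inr 1))
    have hL : IsLag QK (m + 1) (LinearMap.range j) := ⟨by
      rintro _ ⟨p, rfl⟩
      rw [hQK]
      simp [j, Cfsg.quadFormMinus]
      linear_combination p.2 ^ 2 * hθ, by rw [LinearMap.finrank_range_of_inj hj]; simp⟩
    let gK : GL ((Fin m ⊕ Fin m) ⊕ Fin 2) K := Units.map (algebraMap F K).mapMatrix.toMonoidHom g
    have hgK : (gK : Matrix ((Fin m ⊕ Fin m) ⊕ Fin 2) ((Fin m ⊕ Fin m) ⊕ Fin 2) K) = (g : Matrix ((Fin m ⊕ Fin m) ⊕ Fin 2) ((Fin m ⊕ Fin m) ⊕ Fin 2) F).map (algebraMap F K) := rfl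
    rw [← hgK, preserves_iff hQK hBK h2K (m := m + 1) (by simp; omega) hL
      ((map_ne_zero_iff _ (algebraMap F K).injective).2 hμ) (g := gK) (fun v => sim_ext h2 hg hQK v),
      hgK, ← map_pow, show ((g : Matrix ((Fin m ⊕ Fin m) ⊕ Fin 2) ((Fin m ⊕ Fin m) ⊕ Fin 2) F).map (algebraMap F K)).det = algebraMap F K (g : Matrix ((Fin m ⊕ Fin m) ⊕ Fin 2) ((Fin m ⊕ Fin m) ⊕ Fin 2) F).det from
        (RingHom.map_det _ _).symm, (algebraMap F K).injective.eq_iff]
  constructor
  · rintro ⟨K, i1, i2, hK, h⟩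
    exact (main K i1 i2 hK).1 h
  · intro h
    have hp : (Polynomial.X ^ 2 + Polynomial.C a * Polynomial.X + Polynomial.C b : Polynomial F).natDegree = 2 := by
      compute_degree!
    haveI : Fact (Irreducible (Polynomial.X ^ 2 + Polynomial.C a * Polynomial.X + Polynomial.C b : Polynomial F)) := ⟨by
      refine (Polynomial.irreducible_iff_roots_eq_zero_of_degree_le_three (by rw [hp]) (by rw [hp]; norm_num)).2 ?_
      refine Multiset.eq_zero_of_forall_notMem fun z hz => ?_
      have hz' := (Polynomial.mem_roots (fun e => by simp [e] at hp)).1 hz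
      simp [Polynomial.IsRoot] at hz'
      exact one_ne_zero (hab z 1 (by linear_combination hz')).2⟩
    refine ⟨AdjoinRoot (Polynomial.X ^ 2 + Polynomial.C a * Polynomial.X + Polynomial.C b : Polynomial F), inferInstance, inferInstance, ?_, ?_⟩
    · rw [(AdjoinRoot.powerBasis (fun e => by simp [e] at hp)).finrank, AdjoinRoot.powerBasis_dim, hp]
    · exact (main _ inferInstance inferInstance (by rw [(AdjoinRoot.powerBasis (fun e => by simp [e] at hp)).finrank, AdjoinRoot.powerBasis_dim, hp])).2 h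

end minus

theorem plus_inndiag {F : Type u} [Field F] [Fintype F] {m : ℕ} (D : Data (Cfsg.quadFormPlus m F) m) :
    Cfsg.inndiagPOmegaPlus m F = D.P.map psi := by
  classical
  refine D.autSub_P (C := fun g => Cfsg.PreservesSingularClasses (Cfsg.quadFormPlus m F) (g : Matrix (Fin m ⊕ Fin m) (Fin m ⊕ Fin m) F)) fun g => ?_
  rw [D.mem_P]
  have hL : IsLag D.Q m (LinearMap.range (LinearMap.funLeft F F (id : Fin m → Fin m) |>.comp LinearMap.id |> fun e =>
      ({ toFun := fun x => Sum.elim (e x) 0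
         map_add' := fun x y => by funext i; rcases i with i | i <;> simp
         map_smul' := fun c x => by funext i; rcases i with i | i <;> simp } : (Fin m → F) →ₗ[F] (Fin m ⊕ Fin m → F)))) :=
    ⟨by rintro _ ⟨x, rfl⟩; rw [D.hf]; simp [Cfsg.quadFormPlus],
      by rw [LinearMap.finrank_range_of_inj (fun x y h => funext fun i => congrFun h (Sum.inl i))]; simp⟩
  exact preserves_iff D.hf D.hB D.h2 D.hι hL (D.mult g).ne_zero (D.mult_spec g)

theorem minus_inndiag {F : Type u} [Field F] [Fintype F] {m : ℕ} (hodd : Odd (Fintype.card F)) {a b : F}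
    (hab : ∀ z₁ z₂ : F, z₁ ^ 2 + a * z₁ * z₂ + b * z₂ ^ 2 = 0 → z₁ = 0 ∧ z₂ = 0)
    (D : Data (Cfsg.quadFormMinus m F a b) (m + 1)) : Cfsg.inndiagPOmegaMinus m F a b = D.P.map psi := by
  classical
  refine D.autSub_P (C := fun g => Cfsg.PreservesSingularClassesMinus m a b (g : Matrix ((Fin m ⊕ Fin m) ⊕ Fin 2) ((Fin m ⊕ Fin m) ⊕ Fin 2) F)) fun g => ?_
  rw [D.mem_P]
  exact preserves_minus_iff hodd hab (D.mult g).ne_zero (D.mult_spec g)

end Cfsg.Lib.Classical.OrthAut
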